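import Mathlib

/-! Strongly regular graphs with parameters `(77,16,0,4)`: lines. -/

set_option autoImplicit false
set_option linter.unusedSectionVars false

namespace Cfsg.Agent.Srg77
open Finset

variable {V : Type*} [Fintype V] [DecidableEq V] {G : SimpleGraph V} [DecidableRel G.Adj]

variable (G) in
/-- adjacency operator -/
def A (f : V → ℤ) (t : V) : ℤ := ∑ u, if G.Adj t u then f u else 0

/-- indicator function -/
def ind (S : Finset V) (v : V) : ℤ := if v ∈ S then 1 else 0

variable (G) in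
/-- number of neighbours in `S` -/
def n (S : Finset V) (t : V) : ℤ := A G (ind S) t

variable (G) in
/-- common neighbours -/
def cn (v w : V) : Finset V := univ.filter fun x => G.Adj v x ∧ G.Adj w x

theorem mem_cn {v w x : V} : x ∈ cn G v w ↔ G.Adj v x ∧ G.Adj w x := by simp [cn]

theorem n_eq (S : Finset V) (t : V) : n G S t = #(S.filter (G.Adj t)) := by
  simp only [n, A, ind, card_filter]
  push_cast
  rw [← sum_subset (subset_univ S) fun x _ hx => by simp [hx]]
  exact sum_congr rfl fun x hx => by simp [hx]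

theorem n_nonneg (S : Finset V) (t : V) : 0 ≤ n G S t := n_eq (G := G) S t ▸ Int.natCast_nonneg _

theorem n_zero {S : Finset V} {t : V} : n G S t = 0 ↔ ∀ u ∈ S, ¬ G.Adj t u := by
  rw [n_eq, Nat.cast_eq_zero, card_eq_zero, filter_eq_empty_iff]

theorem n_single (x t : V) : n G {x} t = if G.Adj t x then 1 else 0 := by
  rw [n_eq, filter_singleton]; split_ifs <;> simp

theorem sum_ind (S : Finset V) (f : V → ℤ) : ∑ t, ind S t * f t = ∑ t ∈ S, f t := by
  simp [ind, sum_ite_mem]

theorem sum_ind' (S : Finset V) : ∑ t, ind S t = #S := by simpa using sum_ind S fun _ => 1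

theorem A_symm (f g : V → ℤ) : ∑ t, f t * A G g t = ∑ t, A G f t * g t := by
  simp only [A, mul_sum, sum_mul]
  rw [sum_comm]
  exact sum_congr rfl fun u _ => sum_congr rfl fun t _ => by simp [G.adj_comm]

theorem A_add (f g : V → ℤ) (t : V) : A G (fun u => f u + g u) t = A G f t + A G g t := by
  simp only [A, ← sum_add_distrib]; exact sum_congr rfl fun u _ => by split_ifs <;> simp

theorem A_sub (f g : V → ℤ) (t : V) : A G (fun u => f u - g u) t = A G f t - A G g t := by
  simp only [A, ← sum_sub_distrib]; exact sum_congr rfl fun u _ => by split_ifs <;> simp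

theorem A_mul (c : ℤ) (f : V → ℤ) (t : V) : A G (fun u => c * f u) t = c * A G f t := by
  simp only [A, mul_sum]; exact sum_congr rfl fun u _ => by split_ifs <;> simp

variable (G) in
/-- eigenvectors for `-6` -/
def Eig (φ : V → ℤ) : Prop := ∀ t, A G φ t = -6 * φ t

variable (G) in
/-- the projection to the eigenspace (scaled) -/
def M (f : V → ℤ) (t : V) : ℤ := 22 * f t - 11 * A G f t + 2 * ∑ u, f u

variable (G) in
/-- lines -/
def Line (L : Finset V) : Prop := #L = 5 ∧ (∀ t ∈ L, n G L t = 0) ∧ ∀ t, n G L t = 0 ∨ n G L t = 2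

variable (G) in
/-- the three further points of a line -/
def Z (x y : V) : Finset V := univ.filter fun z => ¬ G.Adj x z ∧ ¬ G.Adj y z ∧ n G (cn G x y) z = 0

variable (G) in
/-- the line through two points -/
def ln (x y : V) : Finset V := insert x (insert y (Z G x y))

theorem card_cn (v w : V) : Fintype.card (G.commonNeighbors v w) = #(cn G v w) := by
  rw [cn, ← Fintype.card_coe]
  refine Fintype.card_congr (Equiv.subtypeEquivRight fun x => ?_)
  simp [SimpleGraph.mem_commonNeighbors]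

variable (h : G.IsSRGWith 77 16 0 4)
include h

theorem no_tri {a b c : V} (h1 : G.Adj a b) (h2 : G.Adj a c) (h3 : G.Adj b c) : False := by
  have := h.of_adj a b h1
  rw [card_cn, card_eq_zero] at this
  have : c ∈ cn G a b := mem_cn.2 ⟨h2, h3⟩
  simp_all

theorem cn4 {a b : V} (h1 : a ≠ b) (h2 : ¬ G.Adj a b) : #(cn G a b) = 4 := by
  rw [← card_cn]; exact h.of_not_adj h1 h2

theorem deg (a : V) : #(univ.filter (G.Adj a)) = 16 := by
  have := h.regular a
  rw [← SimpleGraph.card_neighborFinset_eq_degree] at this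
  rw [← this]; congr 1; ext; simp

theorem A_const (c : ℤ) (t : V) : A G (fun _ => c) t = 16 * c := by
  rw [A, ← sum_filter, sum_const, deg h]; simp

theorem sum_A (f : V → ℤ) : ∑ t, A G f t = 16 * ∑ t, f t := by
  have := A_symm (G := G) (fun _ => 1) f
  simpa [A_const h, ← mul_sum] using this

theorem AA (f : V → ℤ) (t : V) : A G (A G f) t = 12 * f t - 4 * A G f t + 4 * ∑ u, f u := by
  have h1 : ∀ v, (#(cn G t v) : ℤ) = 12 * (if t = v then 1 else 0) - 4 * (if G.Adj t v then 1 else 0) + 4 := by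
    intro v
    by_cases e : t = v
    · subst e; simp [cn, deg h]
    by_cases e' : G.Adj t v
    · rw [← card_cn, h.of_adj t v e']; simp [e, e']
    · rw [cn4 h e e']; simp [e, e']
  have h2 : A G (A G f) t = ∑ v, #(cn G t v) * f v := by
    simp only [A, cn, card_filter]
    push_cast
    simp only [sum_mul]
    rw [sum_comm]
    refine sum_congr rfl fun u _ => ?_
    split_ifs with e
    · exact sum_congr rfl fun v _ => by simp [e, G.adj_comm]
    · simp [e]
  simp only [h2, h1, add_mul, sub_mul, sum_add_distrib, sum_sub_distrib, mul_assoc, ← mul_sum]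
  simp [A]

theorem Eig.sum {φ : V → ℤ} (e : Eig G φ) : ∑ t, φ t = 0 := by
  have := sum_A h φ
  rw [sum_congr rfl fun t _ => e t, ← mul_sum] at this
  omega

theorem eigM (f : V → ℤ) : Eig G (M G f) := fun t => by
  unfold M
  rw [A_add, A_sub, A_mul, A_mul, A_const h, AA h]; ring

theorem Eig.pair {φ : V → ℤ} (e : Eig G φ) (f : V → ℤ) : ∑ t, φ t * M G f t = 88 * ∑ t, φ t * f t := by
  have h1 := A_symm (G := G) φ f
  simp only [e _, mul_assoc, ← mul_sum] at h1
  simp only [M, mul_add, mul_sub, sum_add_distrib, sum_sub_distrib, mul_left_comm (φ _), ← mul_sum, h1, ← sum_mul,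
    e.sum h]
  ring

theorem M_zero {f : V → ℤ} (e : ∀ t, M G f t * f t ≤ 0) (t : V) : M G f t = 0 := by
  have h1 := (eigM h f).pair h f
  have h2 : ∑ t, M G f t * f t ≤ 0 := sum_nonpos fun t _ => e t
  have h3 : ∑ t, M G f t * M G f t = 0 := le_antisymm (by omega) (sum_nonneg fun t _ => mul_self_nonneg _)
  exact mul_self_eq_zero.1 ((sum_eq_zero_iff_of_nonneg fun t _ => mul_self_nonneg _).1 h3 t (mem_univ _))

theorem sum_quad (S : Finset V) {c : ℤ} (hc : ∀ t ∈ S, n G S t = c) :
    ∑ t, (n G S t - 1) * (n G S t - 2) = #S * (4 * #S - 4 * c - 36) + 154 := by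
  have h1 := A_symm (G := G) (ind S) (A G (ind S))
  rw [sum_ind, sum_congr rfl (g := fun _ => 12 - 4 * c + 4 * #S) fun t ht => by
    rw [AA h, sum_ind', ← hc t ht]; simp [ind, ht, n], sum_const] at h1
  have h2 := sum_A h (ind S)
  rw [sum_ind'] at h2
  have h3 : ∀ t, (n G S t - 1) * (n G S t - 2) = A G (ind S) t * A G (ind S) t - 3 * A G (ind S) t + 2 :=
    fun t => by unfold n; ring
  simp only [h3, sum_add_distrib, sum_sub_distrib, ← mul_sum, ← h1, h2, sum_const, card_univ, h.card]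
  simp; ring

omit h in
theorem quad_nonneg (a : ℤ) : 0 ≤ (a - 1) * (a - 2) := by
  rcases le_or_gt a 1 with e | e
  · exact mul_nonneg_of_nonpos_of_nonpos (by omega) (by omega)
  · exact mul_nonneg (by omega) (by omega)

theorem no33 {S : Finset V} (h6 : #S = 6) (hc : ∀ t ∈ S, n G S t = 3) : False := by
  have h1 := sum_quad h S hc
  have h2 := sum_le_sum_of_subset_of_nonneg (subset_univ S) (f := fun t => (n G S t - 1) * (n G S t - 2))
    fun t _ _ => quad_nonneg _
  rw [h1, sum_congr rfl (g := fun _ => 2) fun t ht => by rw [hc t ht]; rfl, sum_const, h6] at h2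
  norm_num at h2

variable {x y : V} (hxy : x ≠ y) (hn : ¬ G.Adj x y)
include hxy hn

theorem le2 {z : V} (h1 : z ≠ x) (h2 : z ≠ y) : n G (cn G x y) z ≤ 2 := by
  by_contra hh
  rw [n_eq] at hh
  obtain ⟨B, hB, h3⟩ := exists_subset_card_eq (s := (cn G x y).filter (G.Adj z)) (n := 3) (by omega)
  have h4 : ∀ b ∈ B, G.Adj x b ∧ G.Adj y b ∧ G.Adj z b := fun b hb => by
    have := mem_filter.1 (hB hb); exact ⟨(mem_cn.1 this.1).1, (mem_cn.1 this.1).2, this.2⟩
  obtain ⟨a, ha⟩ : B.Nonempty := card_pos.1 (by omega)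
  have h5 : ¬ G.Adj x z := fun e => no_tri h e (h4 a ha).1 (h4 a ha).2.2
  have h6 : ¬ G.Adj y z := fun e => no_tri h e (h4 a ha).2.1 (h4 a ha).2.2
  have h7 : #({x, y, z} : Finset V) = 3 := card_eq_three.2 ⟨x, y, z, hxy, h1.symm, h2.symm, rfl⟩
  have h8 : ∀ t ∈ ({x, y, z} : Finset V), ∀ b ∈ B, G.Adj t b := fun t ht b hb => by
    simp only [mem_insert, mem_singleton] at ht
    rcases ht with rfl | rfl | rfl
    exacts [(h4 b hb).1, (h4 b hb).2.1, (h4 b hb).2.2]
  refine no33 h (S := {x, y, z} ∪ B) ?_ fun t ht => ?_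
  · rw [card_union_of_disjoint (disjoint_left.2 fun t ht hb => (h8 t ht t hb).ne rfl), h7, h3]
  rw [n_eq, filter_union]
  rcases mem_union.1 ht with ht | ht
  · rw [filter_false_of_mem fun u hu e => no_tri h e (h8 t ht a ha) (h8 u hu a ha), filter_true_of_mem (h8 t ht),
      empty_union, h3]; rfl
  · rw [filter_true_of_mem fun u hu => (h8 u hu t ht).symm,
      filter_false_of_mem fun u hu e => no_tri h (h4 t ht).1 (h4 u hu).1 e, union_empty, h7]; rfl

omit hxy hn in
theorem nC_zero {t : V} (e : G.Adj x t ∨ G.Adj y t) : n G (cn G x y) t = 0 :=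
  n_zero.2 fun u hu e' => e.elim (fun e => no_tri h e (mem_cn.1 hu).1 e') fun e => no_tri h e (mem_cn.1 hu).2 e'

theorem nC_four {t : V} (e : t = x ∨ t = y) : n G (cn G x y) t = 4 := by
  rw [n_eq, filter_true_of_mem, cn4 h hxy hn]; rfl
  rintro u hu
  rcases e with rfl | rfl
  exacts [(mem_cn.1 hu).1, (mem_cn.1 hu).2]

omit h hxy hn in
theorem mem_Z {z : V} : z ∈ Z G x y ↔ ¬ G.Adj x z ∧ ¬ G.Adj y z ∧ n G (cn G x y) z = 0 := by simp [Z]

theorem card_Z : #(Z G x y) = 3 := by
  have h1 := sum_quad h (cn G x y) (c := 0) fun t ht => nC_zero h (Or.inl (mem_cn.1 ht).1)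
  have h2 : ∀ t, (n G (cn G x y) t - 1) * (n G (cn G x y) t - 2) = 6 * ind {x} t + 6 * ind {y} t +
      2 * ind (Z G x y) t + 2 * ind (univ.filter (G.Adj x)) t + 2 * ind (univ.filter (G.Adj y)) t -
      2 * ind (cn G x y) t := fun t => by
    have hn' : ¬ G.Adj y x := fun e => hn e.symm
    by_cases e1 : t = x
    · simp [ind, mem_Z, mem_cn, e1, nC_four h hxy hn, hxy, hn']
    by_cases e2 : t = y
    · simp [ind, mem_Z, mem_cn, e2, nC_four h hxy hn, hxy.symm, hn]
    by_cases e3 : G.Adj x t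
    · by_cases e4 : G.Adj y t <;> simp [ind, mem_Z, mem_cn, e1, e2, e3, e4, nC_zero h]
    by_cases e4 : G.Adj y t
    · simp [ind, mem_Z, mem_cn, e1, e2, e3, e4, nC_zero h]
    have h3 := le2 h hxy hn e1 e2
    have h4 := n_nonneg (G := G) (cn G x y) t
    simp only [ind, mem_Z, mem_cn, e1, e2, e3, e4, mem_singleton, mem_filter]
    generalize n G (cn G x y) t = a at *
    interval_cases a <;> simp
  simp only [h2, sum_add_distrib, sum_sub_distrib, ← mul_sum, sum_ind', deg h, cn4 h hxy hn, card_singleton] at h1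
  omega

theorem x_Z {t : V} (e : t = x ∨ t = y) : t ∉ Z G x y := fun e' => by
  have := (mem_Z.1 e').2.2
  rw [nC_four h hxy hn e] at this
  omega

theorem line_rel : Line G (ln G x y) ∧
    ∀ φ, Eig G φ → ∑ l ∈ ln G x y, φ l = 2 * ∑ c ∈ cn G x y, φ c + 4 * φ x + 4 * φ y := by
  have hn' : ¬ G.Adj y x := fun e => hn e.symm
  set f : V → ℤ := fun t => ind (Z G x y) t - 2 * ind (cn G x y) t - 3 * ind {x} t - 3 * ind {y} t with hf
  have h1 : ∀ t, M G f t = 11 * (2 * f t - n G (Z G x y) t + 2 * n G (cn G x y) t + 3 * n G {x} t +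
      3 * n G {y} t - 2) := fun t => by
    rw [M, hf, A_sub, A_sub, A_sub, A_mul, A_mul, A_mul]
    simp only [sum_sub_distrib, ← mul_sum, sum_ind', card_Z h hxy hn, cn4 h hxy hn, card_singleton, n]
    ring
  have hZ : ∀ t, t = x ∨ t = y ∨ t ∈ cn G x y → n G (Z G x y) t = 0 := fun t ht => n_zero.2 fun u hu e => by
    obtain ⟨a, b, c⟩ := mem_Z.1 hu
    rcases ht with rfl | rfl | ht
    exacts [a e, b e, n_zero.1 c t ht e.symm]
  have h2 : ∀ t, M G f t = 0 := M_zero h fun t => by
    rw [h1]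
    have := n_nonneg (G := G) (Z G x y) t
    by_cases e1 : t = x
    · simp [hf, ind, mem_cn, e1, nC_four h hxy hn, hxy, hn, n_single, x_Z h hxy hn, hZ]
    by_cases e2 : t = y
    · simp [hf, ind, mem_cn, e2, nC_four h hxy hn, hxy.symm, hn', n_single, x_Z h hxy hn, hZ]
    by_cases e3 : t ∈ cn G x y
    · have := mem_cn.1 e3
      simp [hf, ind, mem_Z, e1, e2, e3, n_single, hZ, this.1, this.1.symm, this.2.symm, nC_zero h]
    by_cases e4 : t ∈ Z G x y
    · obtain ⟨a, b, c⟩ := mem_Z.1 e4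
      simpa [hf, ind, e1, e2, e3, e4, n_single, c, G.adj_comm t, a, b]
    · simp [hf, ind, e1, e2, e3, e4]
  have hy : y ∉ Z G x y := x_Z h hxy hn (Or.inr rfl)
  have hx : x ∉ insert y (Z G x y) := by simp [hxy, x_Z h hxy hn]
  have h3 : ∀ t, n G (ln G x y) t = n G {x} t + n G {y} t + n G (Z G x y) t := fun t => by
    unfold n
    rw [← A_add, ← A_add]
    congr 1
    funext u
    by_cases e1 : u = x
    · simp [ind, ln, e1, hxy, x_Z h hxy hn]
    by_cases e2 : u = y
    · simp [ind, ln, e2, hxy.symm, hy]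
    simp [ind, ln, e1, e2]
  have h4 : ∀ t, (t ∈ ln G x y → n G (ln G x y) t = 0) ∧ (n G (ln G x y) t = 0 ∨ n G (ln G x y) t = 2) := fun t => by
    have h5 := h2 t
    rw [h1] at h5
    rw [h3]
    have := n_nonneg (G := G) (Z G x y) t
    by_cases e1 : t = x
    · simp [e1, hn, n_single, hZ]
    by_cases e2 : t = y
    · simp [e2, hn', n_single, hZ]
    have h6 := le2 h hxy hn e1 e2
    by_cases e4 : t ∈ Z G x y
    · obtain ⟨a, b, c⟩ := mem_Z.1 e4
      simp [hf, ind, mem_cn, e1, e2, e4, n_single, c, G.adj_comm t, a, b] at h5 ⊢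
      omega
    simp only [ln, mem_insert, e1, e2, e4, or_self, false_imp_iff, true_and]
    by_cases e3 : G.Adj x t <;> by_cases e5 : G.Adj y t <;>
      simp [hf, ind, mem_cn, e1, e2, e3, e4, e5, n_single, G.adj_comm t, nC_zero h] at h5 ⊢ <;> omega
  refine ⟨⟨?_, fun t => (h4 t).1, fun t => (h4 t).2⟩, fun φ e => ?_⟩
  · rw [ln, card_insert_of_notMem hx, card_insert_of_notMem hy, card_Z h hxy hn]
  · have h5 := e.pair h f
    simp only [h2, mul_zero, sum_const_zero] at h5
    simp only [mul_comm (φ _), hf, sub_mul, sum_sub_distrib, mul_assoc, ← mul_sum,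
      sum_ind, sum_singleton] at h5
    rw [ln, sum_insert hx, sum_insert hy]
    omega

omit hxy hn in
theorem Line.nadj {L : Finset V} (hL : Line G L) {u v : V} (hu : u ∈ L) (hv : v ∈ L) : ¬ G.Adj u v :=
  n_zero.1 (hL.2.1 u hu) v hv

omit hn in
theorem Line.eq {L : Finset V} (hL : Line G L) (hx : x ∈ L) (hy : y ∈ L) : ln G x y = L := by
  symm
  refine eq_of_subset_of_card_le (fun z hz => ?_) (by rw [hL.1, (line_rel h hxy (hL.nadj h hx hy)).1.1])
  by_cases e1 : z = x
  · simp [ln, e1]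
  by_cases e2 : z = y
  · simp [ln, e2]
  refine mem_insert_of_mem (mem_insert_of_mem (mem_Z.2 ⟨hL.nadj h hx hz, hL.nadj h hy hz, n_zero.2 fun c hc e => ?_⟩))
  have h1 := card_le_card (show ({x, y, z} : Finset V) ⊆ L.filter (G.Adj c) by
    simp [insert_subset_iff, hx, hy, hz, e.symm, (mem_cn.1 hc).1.symm, (mem_cn.1 hc).2.symm])
  rw [card_eq_three.2 ⟨x, y, z, hxy, Ne.symm e1, Ne.symm e2, rfl⟩] at h1
  have h2 := hL.2.2 c
  rw [n_eq] at h2
  omega

end Cfsg.Agent.Srg77
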