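import Cfsg.Agent.H15.Srg77a
import Cfsg.Agent.S0410

/-! Strongly regular graphs with parameters `(77,16,0,4)`: planes and uniqueness. -/

set_option autoImplicit false
set_option linter.unusedSectionVars false

namespace Cfsg.Agent.Srg77
open Finset

variable {V : Type*} [Fintype V] [DecidableEq V] {G : SimpleGraph V} [DecidableRel G.Adj]

variable (G) in
/-- points off `L` without neighbours on `L` -/
def O (L : Finset V) : Finset V := univ.filter fun t => t ∉ L ∧ n G L t = 0

variable (G) in
/-- weight function of a line -/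
def eps (L : Finset V) (t : V) : ℤ := 2 * ind L t + ind (O G L) t

variable (G) in
/-- planes -/
def Plane (P : Finset V) : Prop := Eig G fun v => 11 * ind P v - 3

variable (G) in
/-- non-neighbours -/
def W (t : V) : Finset V := univ.filter fun v => v ≠ t ∧ ¬ G.Adj t v

variable (G) in
/-- the union of the lines joining `t` to `L` -/
def U (L : Finset V) (t : V) : Finset V := L.biUnion fun l => (ln G t l).erase t

theorem mem_O {L : Finset V} {t : V} : t ∈ O G L ↔ t ∉ L ∧ n G L t = 0 := by simp [O]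
theorem mem_W {t v : V} : v ∈ W G t ↔ v ≠ t ∧ ¬ G.Adj t v := by simp [W]

theorem Eig.half {φ ψ : V → ℤ} (e : Eig G φ) (h : ∀ t, φ t = 2 * ψ t) : Eig G ψ := fun t => by
  have := e t
  rw [show φ = fun t => 2 * ψ t from funext h, A_mul] at this
  simp only at this
  omega

theorem sum_W (t : V) (g : V → ℤ) : ∑ v ∈ W G t, g v = ∑ v, g v - g t - A G g t := by
  have : g t = ∑ v, if v = t then g v else 0 := by simp
  rw [W, sum_filter, this, A, ← sum_sub_distrib, ← sum_sub_distrib]
  refine sum_congr rfl fun v _ => ?_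
  by_cases e : v = t
  · simp [e]
  · by_cases e' : G.Adj t v <;> simp [e, e']

theorem eps_nonneg (L : Finset V) (t : V) : 0 ≤ eps G L t := by
  unfold eps ind; split_ifs <;> simp

theorem left_mem (x y : V) : x ∈ ln G x y := mem_insert_self _ _
theorem right_mem (x y : V) : y ∈ ln G x y := mem_insert_of_mem (mem_insert_self _ _)

variable (h : G.IsSRGWith 77 16 0 4)
include h

theorem card_W (t : V) : #(W G t) = 60 := by
  have := sum_W (G := G) t fun _ => 1
  rw [A_const h] at this
  simp [h.card] at this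
  omega

theorem Plane.card {P : Finset V} (hP : Plane G P) : #P = 21 := by
  have := Eig.sum h hP
  simp only [sum_sub_distrib, ← mul_sum, sum_ind', sum_const, card_univ, h.card] at this
  simp at this
  omega

theorem Plane.nadj {P : Finset V} (hP : Plane G P) {u v : V} (hu : u ∈ P) (hv : v ∈ P) : ¬ G.Adj u v := by
  have := hP u
  rw [A_sub, A_mul, A_const h] at this
  simp only [show ind P u = 1 from if_pos hu] at this
  exact n_zero.1 (show n G P u = 0 by unfold n; omega) v hv

theorem Plane.sub {P : Finset V} (hP : Plane G P) {x y : V} (hxy : x ≠ y) (hx : x ∈ P) (hy : y ∈ P) :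
    ln G x y ⊆ P := by
  have hn := hP.nadj h hx hy
  obtain ⟨h1, h2⟩ := line_rel h hxy hn
  have h3 := h2 _ hP
  rw [sum_congr rfl (s₁ := cn G x y) (g := fun _ => -3) fun c hc => by
    simp [ind, show c ∉ P from fun e => hP.nadj h hx e (mem_cn.1 hc).1], sum_const, cn4 h hxy hn] at h3
  have h4 : ∑ l ∈ ln G x y, ind P l = #((ln G x y).filter (· ∈ P)) := by unfold ind; rw [sum_boole]
  rw [sum_sub_distrib, ← mul_sum, sum_const, h1.1, h4, show ind P x = 1 from if_pos hx,
    show ind P y = 1 from if_pos hy, nsmul_eq_mul, nsmul_eq_mul] at h3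
  exact (filter_eq_self (p := (· ∈ P))).1 (eq_of_subset_of_card_le (filter_subset _ _) (by
    rw [h1.1]; push_cast at h3; omega))

variable {L : Finset V} (hL : Line G L)
include hL

theorem eig_eps : Eig G fun t => 11 * eps G L t - 6 := (eigM h (ind L)).half fun t => by
  have h1 := hL.2.2 t
  have h2 := hL.2.1 t
  rw [M, sum_ind', hL.1]
  change _ - 11 * n G L t + _ = _
  simp only [eps, ind, mem_O]
  by_cases e : t ∈ L <;> rcases h1 with h1 | h1 <;> simp_all

theorem sum_eps : ∑ t, eps G L t = 42 := by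
  have := (eig_eps h hL).sum h
  simp only [sum_sub_distrib, ← mul_sum, sum_const, card_univ, h.card] at this
  simp at this
  omega

theorem card_O : #(O G L) = 32 := by
  have := sum_eps h hL
  simp only [eps, sum_add_distrib, ← mul_sum, sum_ind', hL.1] at this
  omega

theorem A_eps (t : V) : A G (eps G L) t = 12 - 6 * eps G L t := by
  have := eig_eps h hL t
  rw [A_sub, A_mul, A_const h] at this
  simp only at this
  omega

variable {t : V} (ht : t ∈ O G L)
include ht

theorem L_W {l : V} (hl : l ∈ L) : l ∈ W G t :=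
  mem_W.2 ⟨fun e => (mem_O.1 ht).1 (e ▸ hl), n_zero.1 (mem_O.1 ht).2 l hl⟩

theorem lnL {l : V} (hl : l ∈ L) : Line G (ln G t l) :=
  (line_rel h (mem_W.1 (L_W h hL ht hl)).1.symm (mem_W.1 (L_W h hL ht hl)).2).1

theorem card_U : #(U G L t) = 20 := by
  rw [U, card_biUnion, sum_congr rfl (g := fun _ => 4) fun l hl => by
    rw [card_erase_of_mem (left_mem t l), (lnL h hL ht hl).1], sum_const, hL.1]; rfl
  intro l hl l' hl' e
  refine disjoint_left.2 fun v hv hv' => ?_
  have h1 := (lnL h hL ht hl).eq h (mem_erase.1 hv).1.symm (left_mem t l) (mem_erase.1 hv).2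
  have h2 := (lnL h hL ht hl').eq h (mem_erase.1 hv).1.symm (left_mem t l') (mem_erase.1 hv').2
  have h3 := (lnL h hL ht hl).eq h e (right_mem t l) (h1 ▸ h2.symm ▸ right_mem t l')
  exact (mem_O.1 ht).1 (hL.eq h e hl hl' ▸ h3.symm ▸ left_mem t l)

theorem U_W {v : V} (hv : v ∈ U G L t) : v ∈ W G t := by
  obtain ⟨l, hl, hv⟩ := mem_biUnion.1 hv
  exact mem_W.2 ⟨(mem_erase.1 hv).1, (lnL h hL ht hl).nadj h (left_mem t l) (mem_erase.1 hv).2⟩

theorem plane_U : Plane G (insert t (U G L t)) := by
  obtain ⟨ht1, ht2⟩ := mem_O.1 ht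
  have et : eps G L t = 1 := by simp [eps, ind, ht, ht1]
  set N := (O G L).filter (G.Adj t) with hN
  have h1 : (#N : ℤ) = 6 := by
    have := A_eps h hL t
    unfold eps at this
    rw [A_add, A_mul] at this
    change 2 * n G L t + n G (O G L) t = 12 - 6 * eps G L t at this
    rw [hN, ← n_eq]; omega
  have h1' : n G N t = 6 := by rw [n_eq, filter_true_of_mem fun u hu => (mem_filter.1 hu).2, h1]
  have tN : t ∉ N := fun e => (mem_filter.1 e).2.ne rfl
  have hE : ∀ v ∈ W G t, ∑ l ∈ ln G t v, eps G L l = 2 * n G N v + 4 * eps G L v - 2 := fun v hv => by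
    obtain ⟨a, b⟩ := mem_W.1 hv
    obtain ⟨h2, h3⟩ := line_rel h a.symm b
    have h4 := h3 _ (eig_eps h hL)
    have h5 : ∑ c ∈ cn G t v, eps G L c = n G N v := by
      rw [sum_congr rfl (g := ind (O G L)) fun c hc => by
        simp [eps, ind, show c ∉ L from fun e => n_zero.1 ht2 c e (mem_cn.1 hc).1], n_eq]
      unfold ind
      rw [sum_boole]
      congr 2
      ext c
      simp [hN, mem_cn, and_comm, and_assoc, and_left_comm]
    simp only [sum_sub_distrib, ← mul_sum, sum_const, h2.1, cn4 h a.symm b, h5, et] at h4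
    simp at h4
    omega
  have hE6 : ∀ v ∈ U G L t, ∑ l ∈ ln G t v, eps G L l = 6 := fun v hv => by
    obtain ⟨l, hl, hv⟩ := mem_biUnion.1 hv
    rw [(lnL h hL ht hl).eq h (mem_erase.1 hv).1.symm (left_mem t l) (mem_erase.1 hv).2, hE l (L_W h hL ht hl),
      n_zero.2 fun u hu e => n_zero.1 (mem_O.1 (mem_filter.1 hu).1).2 l hl e.symm]
    simp [eps, ind, hl, mem_O]
  have h6 : ∑ v ∈ W G t, (2 * n G N v + 4 * eps G L v - 4 - 4 * ind (U G L t) v) = 0 := by
    have a1 := sum_W (G := G) t (n G N)
    have a2 := sum_W (G := G) t (eps G L)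
    have a3 : ∑ v ∈ W G t, ind (U G L t) v = 20 := by
      simp only [ind, sum_boole]
      rw [filter_mem_eq_inter, inter_eq_right.2 fun v hv => U_W h hL ht hv, card_U h hL ht]; rfl
    rw [h1', show A G (n G N) t = _ from AA h _ t, show ∑ v, n G N v = _ from sum_A h _, sum_ind', h1,
      show A G (ind N) t = 6 from h1'] at a1
    rw [sum_eps h hL, A_eps h hL, et] at a2
    simp only [sum_sub_distrib, sum_add_distrib, ← mul_sum, a1, a2, a3, sum_const, card_W h]
    simp [ind, tN]
  have h7 := (sum_eq_zero_iff_of_nonneg fun v hv => by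
    have a1 := hE v hv
    by_cases e : v ∈ U G L t
    · rw [hE6 v e] at a1
      simp only [ind, e, if_true]; omega
    · have := single_le_sum (fun l _ => eps_nonneg (G := G) L l) (left_mem (G := G) t v)
      simp only [ind, e, if_false]; omega).1 h6
  have h8 : Eig G fun v => 2 * (11 * eps G L v - 6) - M G (fun u => ind N u + 2 * ind {t} u) v := fun v => by
    rw [A_sub, A_mul, eig_eps h hL, eigM h]; ring
  refine h8.half fun v => ?_
  rw [M, A_add, A_mul, sum_add_distrib, ← mul_sum, sum_ind', sum_ind', h1, card_singleton]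
  change _ - (_ - 11 * (n G N v + 2 * n G {t} v) + _) = _
  rw [n_single]
  by_cases e1 : v = t
  · simp [e1, et, h1', ind, tN]
  by_cases e2 : G.Adj t v
  · have a1 : n G N v = 0 := n_zero.2 fun u hu e => no_tri h e2 (mem_filter.1 hu).2 e
    have a2 : v ∉ U G L t := fun e => (mem_W.1 (U_W h hL ht e)).2 e2
    have a3 : v ∉ L := fun e => n_zero.1 ht2 v e e2
    rw [a1]
    by_cases e3 : v ∈ O G L <;> simp [a2, a3, e1, e2, e2.symm, e3, eps, ind, hN]
  · have a1 := h7 v (mem_W.2 ⟨e1, e2⟩)
    have a2 : v ∉ N := fun e => e2 (mem_filter.1 e).2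
    simp only [ind, mem_insert, mem_singleton, e1, a2, G.adj_comm v, e2, if_false, false_or] at a1 ⊢
    push_cast
    omega

theorem plane_uniq {P : Finset V} (hP : Plane G P) (h1 : L ⊆ P) (h2 : t ∈ P) : P = insert t (U G L t) := by
  symm
  refine eq_of_subset_of_card_le (insert_subset h2 (biUnion_subset.2 fun l hl => (erase_subset _ _).trans
    (hP.sub h (mem_W.1 (L_W h hL ht hl)).1.symm h2 (h1 hl)))) ?_
  rw [hP.card h, (plane_U h hL ht).card h]

omit hL ht

variable (G) in
/-- the type of planes -/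
def Pl : Type _ := {P : Finset V // Plane G P}

omit h in
noncomputable instance : Fintype (Pl G) := by unfold Pl; exact Fintype.ofFinite _

omit h in
instance : DecidableEq (Pl G) := by unfold Pl; infer_instance

variable (G) in
/-- the planes through a vertex -/
noncomputable def blk (v : V) : Finset (Pl G) := univ.filter fun P => v ∈ P.1

theorem two {x y : V} (hxy : x ≠ y) (hn : ¬ G.Adj x y) : #(blk G x ∩ blk G y) = 2 := by
  have hL := (line_rel h hxy hn).1
  have h0 : ∀ P ∈ blk G x ∩ blk G y, ln G x y ⊆ P.1 := fun P hP =>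
    P.2.sub h hxy (mem_filter.1 (mem_inter.1 hP).1).2 (mem_filter.1 (mem_inter.1 hP).2).2
  have := card_mul_eq_card_mul (s := blk G x ∩ blk G y) (t := O G (ln G x y)) (m := 16) (n := 1)
    (fun P t => t ∈ P.1) (fun P hP => by
      rw [show bipartiteAbove (fun (P : Pl G) t => t ∈ P.1) (O G (ln G x y)) P = P.1 \ ln G x y from ?_,
        card_sdiff_of_subset (h0 P hP), P.2.card h, hL.1]
      ext t
      simp only [mem_bipartiteAbove, mem_sdiff, mem_O]
      exact ⟨fun e => ⟨e.2, e.1.1⟩, fun e => ⟨⟨e.2, n_zero.2 fun u hu => P.2.nadj h e.1 (h0 P hP hu)⟩, e.1⟩⟩)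
    fun t ht => card_eq_one.2 ⟨⟨_, plane_U h hL ht⟩, eq_singleton_iff_unique_mem.2 ⟨by
      have : ln G x y ⊆ insert t (U G (ln G x y) t) := fun l hl => mem_insert_of_mem
        (mem_biUnion.2 ⟨l, hl, mem_erase.2 ⟨(mem_W.1 (L_W h hL ht hl)).1, right_mem t l⟩⟩)
      exact mem_filter.2 ⟨mem_inter.2 ⟨mem_filter.2 ⟨mem_univ _, this (left_mem x y)⟩,
        mem_filter.2 ⟨mem_univ _, this (right_mem x y)⟩⟩, mem_insert_self _ _⟩, fun P hP =>
        Subtype.ext (plane_uniq h hL ht P.2 (h0 P (mem_filter.1 hP).1) (mem_filter.1 hP).2)⟩⟩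
  rw [card_O h hL] at this
  omega

theorem six (v : V) : #(blk G v) = 6 := by
  have := card_mul_eq_card_mul (s := blk G v) (t := W G v) (m := 20) (n := 2)
    (fun P t => t ∈ P.1) (fun P hP => by
      have h1 := (mem_filter.1 hP).2
      rw [show bipartiteAbove (fun (P : Pl G) t => t ∈ P.1) (W G v) P = P.1.erase v from ?_,
        card_erase_of_mem h1, P.2.card h]
      ext t
      simp only [mem_bipartiteAbove, mem_erase, mem_W]
      exact ⟨fun e => ⟨e.1.1, e.2⟩, fun e => ⟨⟨e.1, P.2.nadj h h1 e.2⟩, e.2⟩⟩)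
    fun t ht => by
      rw [← two h (mem_W.1 ht).1.symm (mem_W.1 ht).2]
      congr 1
      ext P
      simp [blk]
  rw [card_W h] at this
  omega

theorem card_Pl : Fintype.card (Pl G) = 22 := by
  have := card_mul_eq_card_mul (s := (univ : Finset (Pl G))) (t := (univ : Finset V)) (m := 21) (n := 6)
    (fun P t => t ∈ P.1) (fun P _ => by
      rw [← P.2.card h]; congr 1; ext; simp) fun t _ => by rw [← six h t]; rfl
  rw [card_univ, card_univ, h.card] at this
  omega

theorem adj_iff {u v : V} : G.Adj u v ↔ Disjoint (blk G u) (blk G v) := by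
  refine ⟨fun e => disjoint_left.2 fun P a b => P.2.nadj h (mem_filter.1 a).2 (mem_filter.1 b).2 e, fun e => ?_⟩
  by_contra hn
  rw [disjoint_iff_inter_eq_empty, ← card_eq_zero] at e
  by_cases e' : u = v
  · rw [e', inter_self, six h] at e; omega
  · rw [two h e' hn] at e; omega

theorem uq {b c : V} {s : Finset (Pl G)} (hs : 3 ≤ #s) (h1 : s ⊆ blk G b) (h2 : s ⊆ blk G c) : b = c := by
  by_contra hne
  have := card_le_card (subset_inter h1 h2)
  by_cases e : G.Adj b c
  · rw [disjoint_iff_inter_eq_empty.1 ((adj_iff h).1 e), card_empty] at this; omega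
  · rw [two h hne e] at this; omega

theorem steiner : IsSteinerSystem 3 6 (Set.range (blk G)) := by
  refine ⟨?_, fun s hs => ?_⟩
  · rintro _ ⟨b, rfl⟩; exact six h b
  have hU : univ.biUnion (fun b => powersetCard 3 (blk G b)) = powersetCard 3 univ := by
    apply eq_of_subset_of_card_le
    · intro t ht
      simp only [mem_biUnion, mem_powersetCard] at ht ⊢
      obtain ⟨b, -, -, h2⟩ := ht
      exact ⟨subset_univ _, h2⟩
    · rw [card_biUnion, sum_congr rfl (g := fun _ => 20), card_powersetCard, card_univ, card_Pl h]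
      · simp [h.card]; decide
      · intro b _; rw [card_powersetCard, six h]; decide
      · intro b _ c _ hne
        rw [Function.onFun, disjoint_left]
        intro t h1 h2
        rw [mem_powersetCard] at h1 h2
        exact hne (uq h h1.2.ge h1.1 h2.1)
  have : s ∈ powersetCard 3 (univ : Finset (Pl G)) := by simp [hs]
  rw [← hU, mem_biUnion] at this
  obtain ⟨b, -, hsb⟩ := this
  rw [mem_powersetCard] at hsb
  refine ⟨blk G b, ⟨⟨b, rfl⟩, hsb.1⟩, ?_⟩
  rintro _ ⟨⟨c, rfl⟩, h2⟩
  rw [uq h hs.ge hsb.1 h2]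

theorem iso {V' : Type*} [Fintype V'] [DecidableEq V'] {H : SimpleGraph V'} [DecidableRel H.Adj]
    (hH : H.IsSRGWith 77 16 0 4) : Nonempty (G ≃g H) := by
  obtain ⟨e, he⟩ := Cfsg.Agent.S0410.result (card_Pl h) (card_Pl hH) (steiner h) (steiner hH)
  have ex : ∀ b, ∃ b', blk H b' = (blk G b).image e := fun b =>
    show (blk G b).image e ∈ Set.range (blk H) from he ▸ ⟨_, ⟨b, rfl⟩, rfl⟩
  choose f hf using ex
  have inj : Function.Injective f := fun v w e' => uq h (s := blk G v) (by rw [six h]; omega) subset_rfl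
    (image_injective e.injective (by rw [← hf, ← hf, e'])).le
  exact ⟨⟨Equiv.ofBijective f ((Fintype.bijective_iff_injective_and_card f).2 ⟨inj, by rw [h.card, hH.card]⟩),
    fun {v w} => by
      rw [Equiv.ofBijective_apply, Equiv.ofBijective_apply, adj_iff hH, adj_iff h, hf, hf,
        disjoint_image e.injective]⟩⟩

end Cfsg.Agent.Srg77
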